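import Mathlib

/-!
# Hall--Higman Theorem B in operator form: definitions

`GL(V)` is `(Module.End K V)ˣ`.  `IsIdx N s`: `s` is the nilpotency index of `N`.
`stab W`: the stabiliser of a subspace, `resHom W`, `quotHom W`: restriction to `W`, action on `V ⧸ W`.
-/

set_option autoImplicit false

namespace Cfsg.Agent.Lib.Helper12.HHB

variable {K : Type*} [Field K] {V : Type*} [AddCommGroup V] [Module K V]

/-- `s` is the nilpotency index of `N`. -/
def IsIdx (N : Module.End K V) (s : ℕ) : Prop := N ^ s = 0 ∧ ∀ k < s, N ^ k ≠ 0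

/-- The stabiliser of the subspace `W` in `GL(V)`. -/
def stab (W : Submodule K V) : Subgroup (Module.End K V)ˣ where
  carrier := {u | (∀ w ∈ W, (u : Module.End K V) w ∈ W) ∧
    ∀ w ∈ W, ((u⁻¹ : (Module.End K V)ˣ) : Module.End K V) w ∈ W}
  mul_mem' := by
    rintro a b ⟨ha, ha'⟩ ⟨hb, hb'⟩
    refine ⟨fun w hw => ?_, fun w hw => ?_⟩
    · simpa using ha _ (hb w hw)
    · simpa [mul_inv_rev] using hb' _ (ha' w hw)
  one_mem' := ⟨fun w hw => by simpa using hw, fun w hw => by simpa using hw⟩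
  inv_mem' := by
    rintro a ⟨ha, ha'⟩
    exact ⟨ha', by simpa using ha⟩

theorem mem_stab {W : Submodule K V} {u : (Module.End K V)ˣ} :
    u ∈ stab W ↔ (∀ w ∈ W, (u : Module.End K V) w ∈ W) ∧
      ∀ w ∈ W, ((u⁻¹ : (Module.End K V)ˣ) : Module.End K V) w ∈ W := Iff.rfl

/-- Restriction to an invariant subspace, as an endomorphism. -/
def resEnd (W : Submodule K V) : stab W →* Module.End K W where
  toFun u := ((u : (Module.End K V)ˣ) : Module.End K V).restrict u.2.1
  map_one' := by ext w; simp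
  map_mul' a b := by ext w; simp

/-- Restriction to an invariant subspace. -/
def resHom (W : Submodule K V) : stab W →* (Module.End K W)ˣ := (resEnd W).toHomUnits

@[simp] theorem resHom_apply (W : Submodule K V) (u : stab W) (w : W) :
    ((((resHom W u : (Module.End K W)ˣ) : Module.End K W) w : W) : V)
      = ((u : (Module.End K V)ˣ) : Module.End K V) w := rfl

/-- The action on the quotient by an invariant subspace, as an endomorphism. -/
def quotEnd (W : Submodule K V) : stab W →* Module.End K (V ⧸ W) where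
  toFun u := W.mapQ W ((u : (Module.End K V)ˣ) : Module.End K V) (fun w hw => u.2.1 w hw)
  map_one' := by ext w; simp
  map_mul' a b := by ext w; simp

/-- The action on the quotient by an invariant subspace. -/
def quotHom (W : Submodule K V) : stab W →* (Module.End K (V ⧸ W))ˣ := (quotEnd W).toHomUnits

@[simp] theorem quotHom_mk (W : Submodule K V) (u : stab W) (v : V) :
    ((quotHom W u : (Module.End K (V ⧸ W))ˣ) : Module.End K (V ⧸ W)) (Submodule.Quotient.mk v)
      = Submodule.Quotient.mk (((u : (Module.End K V)ˣ) : Module.End K V) v) := rfl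

/-- The standing data: a finite `q`-subgroup `Q` of `GL(V)` normalised by `X`, `X ^ p ^ (n+1) = 1`, and
`X ^ p ^ n` does not centralise `Q`. -/
structure Data (p q : ℕ) (Q : Subgroup (Module.End K V)ˣ) (X : (Module.End K V)ˣ) (n : ℕ) : Prop where
  fin : Finite Q
  pgrp : IsPGroup q Q
  norm : ∀ g ∈ Q, X * g * X⁻¹ ∈ Q
  ord : X ^ p ^ (n + 1) = 1
  nc : ∃ g ∈ Q, X ^ p ^ n * g ≠ g * X ^ p ^ n

/-- The conclusion of Theorem B for an element of order `p ^ (n+1)` with index `s`. -/
def Concl (p q n s : ℕ) (nonab : Prop) : Prop :=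
  s = p ^ (n + 1) ∨ ∃ n₀ m : ℕ, 1 ≤ n₀ ∧ n₀ ≤ n + 1 ∧ 1 ≤ m ∧ p ^ n₀ - 1 = q ^ m ∧ nonab ∧
    p ^ (n + 1 - n₀) * (p ^ n₀ - 1) ≤ s

/-- `Q` has scalar commutant. -/
def ScalarComm (Q : Subgroup (Module.End K V)ˣ) : Prop :=
  ∀ T : Module.End K V, (∀ g ∈ Q, T * ((g : (Module.End K V)ˣ) : Module.End K V) = (g : Module.End K V) * T) →
    ∃ c : K, T = c • 1

end Cfsg.Agent.Lib.Helper12.HHB
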