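import Cfsg.Agent.Lib.Helper12.HHB.QDefs
import Cfsg.Agent.Lib.Helper61.HHCrit
import Cfsg.Agent.Lib.Helper16.HHB2WRa
import Cfsg.Agent.Lib.Helper68.HHBIDX

/-!
# Ladder HH3, rung FIN: the critical case of lemma LQ is impossible
-/

set_option autoImplicit false
set_option linter.style.haveILetI false

namespace Cfsg.Agent.Lib.Helper12.HHB

open Module Cfsg.Agent.Lib.Helper61.HH

variable {K : Type*} [Field K] {V : Type*} [AddCommGroup V] [Module K V]

/-- the commutant of a nilpotent operator with a single Jordan block is commutative -/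
theorem commute_of_cyclic [FiniteDimensional K V] (N : Module.End K V) (n : ℕ) (hn : Module.finrank K V = n)
    (h0 : N ^ n = 0) (h1 : N ^ (n - 1) ≠ 0) (A B : Module.End K V) (hA : A * N = N * A) (hB : B * N = N * B) :
    A * B = B * A := by
  obtain ⟨m, hm⟩ : ∃ m, (N ^ (n - 1)) m ≠ 0 := by
    by_contra hcon
    push Not at hcon
    exact h1 (LinearMap.ext hcon)
  have hli := Cfsg.Agent.Lib.Helper16.HHB.wr_li N n m (by rw [h0]; rfl) hm
  have hspan : Submodule.span K (Set.range (fun i : Fin n => (N ^ (i : ℕ)) m)) = ⊤ :=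
    hli.span_eq_top_of_card_eq_finrank' (by rw [Fintype.card_fin, hn])
  have key : ∀ C : Module.End K V, C * N = N * C → ∃ a : Fin n → K, C = ∑ i, a i • N ^ (i : ℕ) := by
    intro C hC
    have hCm : C m ∈ Submodule.span K (Set.range (fun i : Fin n => (N ^ (i : ℕ)) m)) := by
      rw [hspan]; trivial
    rw [Submodule.mem_span_range_iff_exists_fun] at hCm
    obtain ⟨a, ha⟩ := hCm
    refine ⟨a, ?_⟩
    have hCpow : ∀ j : ℕ, C * N ^ j = N ^ j * C := fun j => (Commute.pow_right (show Commute C N from hC) j).eq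
    apply LinearMap.ext_on_range hspan
    intro j
    have e1 : C ((N ^ (j : ℕ)) m) = (N ^ (j : ℕ)) (C m) := by
      have := LinearMap.congr_fun (hCpow j) m
      simpa [Module.End.mul_apply] using this
    rw [e1, ← ha, map_sum, LinearMap.sum_apply]
    apply Finset.sum_congr rfl
    intro i _
    rw [map_smul, LinearMap.smul_apply, ← Module.End.mul_apply, ← Module.End.mul_apply, ← pow_add, ← pow_add, add_comm]
  obtain ⟨a, rfl⟩ := key A hA
  obtain ⟨b, rfl⟩ := key B hB
  have : Commute (∑ i, a i • N ^ (i : ℕ)) (∑ i, b i • N ^ (i : ℕ)) := by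
    apply Commute.sum_left
    intro i _
    apply Commute.sum_right
    intro j _
    exact ((Commute.pow_pow_self N i j).smul_left _).smul_right _
  exact this.eq

theorem crit_false {p q : ℕ} [hp : Fact p.Prime] [hq : Fact q.Prime] [CharP K p] [IsAlgClosed K] [FiniteDimensional K V]
    [Nontrivial V]
    (hpq : p ≠ q) (hp2 : p ≠ 2) (Q : Subgroup (Module.End K V)ˣ) [Finite Q] (hQ : IsPGroup q Q) (hC : ScalarComm Q)
    (b b' c : (Module.End K V)ˣ) (hc : c = b * b' * b⁻¹ * b'⁻¹) (hcb : c * b = b * c) (hcb' : c * b' = b' * c)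
    (hnorm : ∀ g ∈ Q, c * g * c⁻¹ ∈ Q)
    (hreg : ∀ g ∈ Q, c * g = g * c → ∃ a : K, (g : Module.End K V) = a • 1)
    (hns : ∃ g ∈ Q, ¬ ∃ a : K, (g : Module.End K V) = a • 1)
    (h2 : ((c : Module.End K V) - 1) ^ (p - 1) = 0) : False := by
  have hp3 : 3 ≤ p := by
    have := hp.out.two_le
    omega
  have hord : c ^ p ^ 1 = 1 := by
    have h1 : ((c : Module.End K V) - 1) ^ p ^ 1 = 0 := by
      have : p ^ 1 = (p - 1) + 1 := by rw [pow_one]; omega
      rw [this, pow_add, h2, zero_mul]
    rw [Cfsg.Agent.Lib.Helper68.HHB.idx_sub_one_pow, sub_eq_zero] at h1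
    exact Units.ext (by rw [Units.val_pow_eq_pow_val, h1, Units.val_one])
  let ρ : Q →* Module.End K V := (Units.coeHom (Module.End K V)).comp Q.subtype
  have hρ : ∀ g : Q, ρ g = ((g : (Module.End K V)ˣ) : Module.End K V) := fun g => rfl
  have hSch : Sch ρ := by
    intro S hS
    exact hC S (fun g hg => hS ⟨g, hg⟩)
  let f : Q →* Q :=
    { toFun := fun g => ⟨c * g * c⁻¹, hnorm g g.2⟩
      map_one' := by ext1; simp
      map_mul' := by intro a b; ext1; simp [mul_assoc] }
  have hfinj : Function.Injective f := by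
    intro a b hab
    have h1 : c * (a : (Module.End K V)ˣ) * c⁻¹ = c * b * c⁻¹ := congrArg Subtype.val hab
    exact Subtype.ext (mul_left_cancel (mul_right_cancel h1))
  let θ : MulAut Q := MulEquiv.ofBijective f ⟨hfinj, Finite.surjective_of_injective hfinj⟩
  have hθ1 : ∀ g : Q, ((θ g : Q) : (Module.End K V)ˣ) = c * g * c⁻¹ := fun g => rfl
  have hθpow : ∀ (j : ℕ) (g : Q), (((θ ^ j) g : Q) : (Module.End K V)ˣ) = c ^ j * g * (c ^ j)⁻¹ := by
    intro j
    induction j with
    | zero => intro g; simp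
    | succ j ih =>
      intro g
      rw [pow_succ', MulAut.mul_apply, hθ1, ih, pow_succ']
      group
  have hqK : (q : K) ≠ 0 := by
    intro h0
    have := (CharP.cast_eq_zero_iff K p q).mp h0
    exact hpq ((Nat.prime_dvd_prime_iff_eq hp.out hq.out).mp this)
  have hQK : (Nat.card Q : K) ≠ 0 := by
    obtain ⟨e, he⟩ := (IsPGroup.iff_card).mp hQ
    rw [he]; push_cast; exact pow_ne_zero _ hqK
  have hTP : (c : Module.End K V) ^ (p ^ 1) = 1 := by
    rw [← Units.val_pow_eq_pow_val, hord, Units.val_one]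
  have hθP : θ ^ (p ^ 1) = 1 := by
    ext g
    rw [hθpow, hord]; simp
  have hTρ : ∀ g, (c : Module.End K V) * ρ g = ρ (θ g) * (c : Module.End K V) := by
    intro g
    rw [hρ, hρ, hθ1, ← Units.val_mul, ← Units.val_mul]
    congr 1
    group
  have hfree : ∀ g, ρ ((θ ^ (p ^ (1 - 1))) g) = ρ g → IsSc ρ g := by
    intro g hg
    rw [hρ, hρ, hθpow] at hg
    have h1 := Units.ext hg
    simp only [Nat.sub_self, pow_zero, pow_one] at h1
    apply hreg g g.2
    calc c * (g : (Module.End K V)ˣ) = (c * g * c⁻¹) * c := by group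
      _ = g * c := by rw [h1]
  have hns' : ∃ g, ¬ IsSc ρ g := by
    obtain ⟨g, hg, hg2⟩ := hns
    exact ⟨⟨g, hg⟩, hg2⟩
  obtain ⟨c1, c2⟩ := crit p ρ hQK hSch θ (c : Module.End K V) 1 Nat.one_pos hTP hθP hTρ hfree hns'
  rw [pow_one] at c1 c2
  have hfin := c2 h2
  have hcomm : ∀ x : (Module.End K V)ˣ, c * x = x * c →
      (x : Module.End K V) * ((c : Module.End K V) - 1) = ((c : Module.End K V) - 1) * (x : Module.End K V) := by
    intro x hx
    have : (c : Module.End K V) * (x : Module.End K V) = (x : Module.End K V) * (c : Module.End K V) := by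
      rw [← Units.val_mul, ← Units.val_mul, hx]
    rw [mul_sub, sub_mul, this, mul_one, one_mul]
  have hbb := commute_of_cyclic ((c : Module.End K V) - 1) (p - 1) hfin h2
    (by
      have : p - 1 - 1 = p - 2 := by omega
      rw [this]; exact c1) (b : Module.End K V) (b' : Module.End K V) (hcomm b hcb) (hcomm b' hcb')
  have hbb' : b * b' = b' * b := Units.ext (by rw [Units.val_mul, Units.val_mul, hbb])
  have hc1 : c = 1 := by
    rw [hc, hbb']
    group
  obtain ⟨g, hg, hg2⟩ := hns
  exact hg2 (hreg g hg (by rw [hc1]; simp))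

end Cfsg.Agent.Lib.Helper12.HHB
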