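import Cfsg.Agent.Lib.Helper12.HHB.KeyQ

/-!
# The Hall--Higman reduction for a `p`-subgroup instead of a `p`-element
-/

set_option autoImplicit false
set_option linter.style.haveILetI false

namespace Cfsg.Agent.Lib.Helper12.HHB

open scoped commutatorElement in
open Cfsg.Agent.Lib.Helper1 Cfsg.Agent.Lib.Helper66 Cfsg.Agent.Lib.Helper30 Cfsg.Agent.Lib.Helper14 in
/-- `X` `p`-solvable with `O_{p'}(X) = 1`, `T = O_p(X)`, `E` a `p`-subgroup.  Then there is a `p`-subgroup `D₁` with `D₁ T = E T`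
such that every `c ∈ D₁ \ T` admits a `D₁`-invariant `q`-subgroup `Q` (`q ≠ p`) and `u ∈ Q` such that `[u, c]`
acts nontrivially on `T/Φ(T)`. -/
theorem keyD2 {X : Type*} [Group X] [Finite X] {p : ℕ} [hp : Fact p.Prime]
    (hX : Cfsg.IsPSolvable p X) (h0 : Cfsg.pPrimeCore p X = ⊥) (E : Subgroup X) (hE : IsPGroup p E) :
    ∃ D₁ : Subgroup X, IsPGroup p D₁ ∧ (∀ d ∈ D₁, ∃ t ∈ Cfsg.pCore p X, ∃ e ∈ E, d = t * e) ∧
      (∀ e ∈ E, ∃ t ∈ Cfsg.pCore p X, ∃ d ∈ D₁, e = t * d) ∧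
      ∀ c ∈ D₁, c ∉ Cfsg.pCore p X → ∃ (q : ℕ) (_ : Fact q.Prime) (Q : Subgroup X) (u a : X), p ≠ q ∧ IsPGroup q Q ∧
        (∀ d ∈ D₁, ∀ g ∈ Q, d * g * d⁻¹ ∈ Q) ∧ u ∈ Q ∧ a ∈ Cfsg.pCore p X ∧
        (u * c * u⁻¹ * c⁻¹) * a * (u * c * u⁻¹ * c⁻¹)⁻¹ * a⁻¹ ∉ phi (Cfsg.pCore p X) := by
  obtain ⟨T, hTn, hT, hbotq⟩ : ∃ (T : Subgroup X) (_ : T.Normal),
      T = Cfsg.pCore p X ∧ Cfsg.pCore p (X ⧸ T) = ⊥ :=
    ⟨_, Cfsg.Agent.Lib.Helper1.pCore_normal p X, rfl, Cfsg.Agent.Lib.Helper31.pCore_quotient_pCore p⟩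
  rw [← hT]
  have hTp : IsPGroup p T := hT ▸ Cfsg.Agent.Lib.Helper1.pCore_isPGroup p X
  have hTc : Subgroup.centralizer (T : Set X) ≤ T := hT ▸ Cfsg.Agent.Lib.Helper80.centralizer_pCore_le hX h0
  have hY : Cfsg.IsPSolvable p (X ⧸ T) :=
    Cfsg.Agent.Lib.Helper80.isPSolvable_of_surjective hp.out (QuotientGroup.mk' T)
      (QuotientGroup.mk'_surjective T) hX
  have hMcent := Cfsg.Agent.Lib.Helper55.centralizer_pPrimeCore_le hY hbotq
  obtain ⟨M, hM⟩ : ∃ M, M = Cfsg.pPrimeCore p (X ⧸ T) := ⟨_, rfl⟩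
  rw [← hM] at hMcent
  haveI hMn : M.Normal := hM ▸ Cfsg.Agent.Lib.Helper1.pPrimeCore_normal p (X ⧸ T)
  have hMc : (Nat.card M).Coprime p := hM ▸ Cfsg.Agent.Lib.Helper1.pPrimeCore_coprime p (X ⧸ T)
  obtain ⟨K, hK⟩ : ∃ K, K = M.comap (QuotientGroup.mk' T) := ⟨_, rfl⟩
  haveI hKn : K.Normal := hK ▸ inferInstance
  have hTK : T ≤ K := hK ▸ le_comap_mk' T M
  have hKrel : T.relIndex K = Nat.card M := hK ▸ relIndex_comap_mk' T M
  -- a complement B of T in K
  obtain ⟨B, hBc, hKB⟩ : ∃ B : Subgroup X, (Nat.card B).Coprime p ∧ K = B ⊔ T := by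
    haveI : (T.subgroupOf K).Normal := inferInstance
    have hcop : Nat.Coprime (Nat.card (T.subgroupOf K)) (T.subgroupOf K).index := by
      obtain ⟨n, hn⟩ := IsPGroup.iff_card.1 hTp
      rw [card_subgroupOf hTK, hn]
      change Nat.Coprime _ (T.relIndex K)
      rw [hKrel]
      exact (Nat.Coprime.pow_right n hMc).symm
    obtain ⟨B', hB'⟩ := Subgroup.exists_right_complement'_of_coprime hcop
    refine ⟨B'.map K.subtype, ?_, ?_⟩
    · rw [Subgroup.card_map_of_injective K.subtype_injective, ← hB'.symm.index_eq_card]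
      change Nat.Coprime (T.relIndex K) p
      rw [hKrel]; exact hMc
    · have h1 := hB'.sup_eq_top
      have h2 := congrArg (Subgroup.map K.subtype) h1
      rw [Subgroup.map_sup, Subgroup.subgroupOf_map_subtype, inf_eq_left.2 hTK,
        ← MonoidHom.range_eq_map, Subgroup.range_subtype] at h2
      rw [sup_comm]; exact h2.symm
  have hBK : B ≤ K := hKB ▸ le_sup_left
  -- Frattini argument
  have hfrat : ∀ g : X, ∃ t ∈ T, ∃ n ∈ Subgroup.normalizer (B : Set X), g = t * n := by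
    intro g
    have h1 : cj g B ≤ B ⊔ T := by
      rw [← hKB]
      calc cj g B ≤ cj g K := cj_mono g hBK
        _ = K := cj_normal g K
    obtain ⟨x, hx, hle⟩ := le_cj_of_le_sup T hTp B (cj g B) hBc (by rw [card_cj]; exact hBc) h1
    have heq : cj g B = cj x B := by
      apply Subgroup.eq_of_le_of_card_ge hle
      rw [card_cj, card_cj]
    refine ⟨x, hx, x⁻¹ * g, ?_, by group⟩
    apply mem_normalizer_of_cj_eq
    rw [cj_mul, heq, cj_inv_cj]
  have hTE : IsPGroup p (T ⊔ E : Subgroup X) := IsPGroup.to_sup_of_normal_left hTp hE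
  have hmemTE : ∀ g, g ∈ T ⊔ E ↔ ∃ t ∈ T, ∃ e ∈ E, g = t * e := by
    intro g
    rw [← SetLike.mem_coe, Subgroup.normal_mul]
    constructor
    · rintro ⟨t, ht, e, he, rfl⟩
      exact ⟨t, ht, e, he, rfl⟩
    · rintro ⟨t, ht, e, he, rfl⟩
      exact ⟨t, ht, e, he, rfl⟩
  obtain ⟨D₁, hD₁⟩ : ∃ D₁, D₁ = Subgroup.normalizer (B : Set X) ⊓ (T ⊔ E) := ⟨_, rfl⟩
  have hD₁p : IsPGroup p D₁ := hD₁ ▸ hTE.to_le inf_le_right
  have hzN : D₁ ≤ Subgroup.normalizer (B : Set X) := hD₁ ▸ inf_le_left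
  refine ⟨D₁, hD₁p, ?_, ?_, ?_⟩
  · intro d hd
    rw [hD₁] at hd
    exact (hmemTE d).1 hd.2
  · intro e he
    obtain ⟨t, ht, n, hn, rfl⟩ := hfrat e
    refine ⟨t, ht, n, ?_, rfl⟩
    rw [hD₁]
    refine ⟨hn, ?_⟩
    have : n = t⁻¹ * (t * n) := by group
    rw [this]
    exact (hmemTE _).2 ⟨t⁻¹, T.inv_mem ht, _, he, rfl⟩
  intro y hyD hxn
  have hyB : y ∉ Subgroup.centralizer (B : Set X) := by
    intro hyc
    have h1 : QuotientGroup.mk' T y ∈ Subgroup.centralizer (M : Set (X ⧸ T)) := by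
      rw [Subgroup.mem_centralizer_iff]
      intro m hm
      obtain ⟨g, rfl⟩ := QuotientGroup.mk'_surjective T m
      have hgK : g ∈ K := by rw [hK]; exact hm
      rw [hKB, ← SetLike.mem_coe, Subgroup.mul_normal] at hgK
      obtain ⟨b, hb, t', ht', rfl⟩ := hgK
      have e1 : QuotientGroup.mk' T (b * t') = QuotientGroup.mk' T b := by
        rw [map_mul, QuotientGroup.mk'_apply T t', (QuotientGroup.eq_one_iff t').2 ht', mul_one]
      rw [e1, ← map_mul, ← map_mul, (Subgroup.mem_centralizer_iff.1 hyc) b hb]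
    have h2 := hMcent h1
    have d1 : orderOf (QuotientGroup.mk' T y) ∣ Nat.card M := Subgroup.orderOf_dvd_natCard M h2
    obtain ⟨k, hk⟩ := hD₁p ⟨y, hyD⟩
    have hk' : y ^ p ^ k = 1 := congrArg Subtype.val hk
    have d2 : orderOf (QuotientGroup.mk' T y) ∣ p ^ k := by
      apply orderOf_dvd_of_pow_eq_one
      rw [← map_pow, hk', map_one]
    have h3 := Nat.eq_one_of_dvd_coprimes (Nat.Coprime.pow_right k hMc) d1 d2
    rw [orderOf_eq_one_iff] at h3
    exact hxn ((QuotientGroup.eq_one_iff y).1 h3)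
  have hBp : ¬ p ∣ Nat.card B := (Nat.Prime.coprime_iff_not_dvd hp.out).1 hBc.symm
  obtain ⟨q, hq, R, hRN, hRy⟩ : ∃ (q : ℕ) (_ : Fact q.Prime) (R : Sylow q B),
      D₁ ≤ Subgroup.normalizer (((R : Subgroup B).map B.subtype : Subgroup X) : Set X) ∧
      ¬ ((R : Subgroup B).map B.subtype ≤ Subgroup.centralizer ({y} : Set X)) := by
    by_contra hcon
    push Not at hcon
    apply hyB
    have hC : B ⊓ Subgroup.centralizer ({y} : Set X) = B := by
      apply Subgroup.eq_of_le_of_card_ge inf_le_left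
      apply Nat.le_of_dvd Nat.card_pos
      rw [← Nat.factorization_prime_le_iff_dvd Nat.card_pos.ne' Nat.card_pos.ne']
      intro q hq
      haveI : Fact q.Prime := ⟨hq⟩
      obtain ⟨R, hR⟩ := Cfsg.Agent.Lib.Helper75.exists_invariant_sylow (q := q) D₁ B hD₁p hzN hBp
      have h1 := hcon q ⟨hq⟩ R hR
      have h2 : (R : Subgroup B).map B.subtype ≤ B ⊓ Subgroup.centralizer ({y} : Set X) :=
        le_inf (Subgroup.map_subtype_le _) h1
      have h3 := Subgroup.card_dvd_of_le h2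
      rw [Subgroup.card_map_of_injective B.subtype_injective, Sylow.card_eq_multiplicity] at h3
      exact (Nat.Prime.pow_dvd_iff_le_factorization hq Nat.card_pos.ne').1 h3
    rw [Subgroup.mem_centralizer_iff]
    intro b hb
    have h4 : b ∈ B ⊓ Subgroup.centralizer ({y} : Set X) := hC.symm ▸ hb
    exact (Subgroup.mem_centralizer_singleton_iff.1 (Subgroup.mem_inf.1 h4).2)
  obtain ⟨Q, hQ⟩ : ∃ Q, Q = (R : Subgroup B).map B.subtype := ⟨_, rfl⟩
  rw [← hQ] at hRN hRy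
  have hQq : IsPGroup q Q := hQ ▸ R.2.map B.subtype
  have hQB : Q ≤ B := hQ ▸ Subgroup.map_subtype_le _
  have hQc : (Nat.card Q).Coprime p := Nat.Coprime.coprime_dvd_left (Subgroup.card_dvd_of_le hQB) hBc
  have hqp : q ≠ p := by
    rintro rfl
    have h1 : Q = ⊥ := by
      have := inf_eq_bot_of_pgroup_coprime hQq hQc
      rwa [inf_idem] at this
    apply hRy; rw [h1]; exact bot_le
  obtain ⟨u, hu, huy⟩ : ∃ u ∈ Q, u ∉ Subgroup.centralizer ({y} : Set X) := SetLike.not_le_iff_exists.1 hRy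
  obtain ⟨w, hw⟩ : ∃ w, w = u * y * u⁻¹ * y⁻¹ := ⟨_, rfl⟩
  have hxQ : ∀ d ∈ D₁, ∀ a ∈ Q, d * a * d⁻¹ ∈ Q := fun d hd a ha =>
    (Subgroup.mem_normalizer_iff.1 (hRN hd) a).1 ha
  have hwQ : w ∈ Q := by
    have : w = u * (y * u⁻¹ * y⁻¹) := by rw [hw]; group
    rw [this]
    exact Q.mul_mem hu (hxQ y hyD _ (Q.inv_mem hu))
  have hw1 : w ≠ 1 := by
    intro h
    apply huy
    rw [Subgroup.mem_centralizer_singleton_iff]
    rw [hw] at h
    have h2 := congrArg (fun z => z * y * u) h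
    simpa [mul_assoc] using h2
  have hwT : w ∉ Subgroup.centralizer (T : Set X) := by
    intro h
    have h2 : w ∈ T ⊓ Q := Subgroup.mem_inf.2 ⟨hTc h, hwQ⟩
    rw [inf_eq_bot_of_pgroup_coprime hTp hQc] at h2
    exact hw1 h2
  obtain ⟨a, ha, haw⟩ : ∃ a ∈ T, w * a * w⁻¹ * a⁻¹ ∉ phi T := by
    by_contra hcon
    push Not at hcon
    apply hwT
    have hwo : (orderOf w).Coprime p :=
      Nat.Coprime.coprime_dvd_left (Subgroup.orderOf_dvd_natCard Q hwQ) hQc
    have h3 := Cfsg.Agent.Lib.Helper1.coprime_trivial_on_frattini_quotient (Subgroup.zpowers w) T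
      (by rw [Subgroup.normalizer_eq_top]; exact le_top)
      (Cfsg.Agent.Lib.Helper53.coprime_card_zpowers (hTp.to_subgroup _) hwo) ?_
    · exact h3 (Subgroup.mem_zpowers w)
    · -- the elements acting trivially on T / phi T form a subgroup
      haveI := phi_normal T
      have hz : Subgroup.zpowers w ≤ (Subgroup.centralizer ((T.map (QuotientGroup.mk' (phi T)) : Subgroup _) : Set (X ⧸ phi T))).comap
          (QuotientGroup.mk' (phi T)) := by
        rw [Subgroup.zpowers_le, Subgroup.mem_comap, Subgroup.mem_centralizer_iff]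
        rintro _ ⟨a, ha, rfl⟩
        have h4 := hcon a ha
        rw [← QuotientGroup.eq_one_iff] at h4
        have h5 : QuotientGroup.mk' (phi T) (w * a * w⁻¹ * a⁻¹) = 1 := h4
        rw [map_mul, map_mul, map_mul, map_inv, map_inv] at h5
        have h6 := congrArg (fun z => z * QuotientGroup.mk' (phi T) a * QuotientGroup.mk' (phi T) w) h5
        simpa [mul_assoc] using h6.symm
      intro c hc k hk
      have h4 := hz hc
      rw [Subgroup.mem_comap, Subgroup.mem_centralizer_iff] at h4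
      have h5 := h4 _ (Subgroup.mem_map_of_mem _ hk)
      show c * k * c⁻¹ * k⁻¹ ∈ phi T
      rw [← QuotientGroup.eq_one_iff]
      show QuotientGroup.mk' (phi T) (c * k * c⁻¹ * k⁻¹) = 1
      rw [map_mul, map_mul, map_mul, map_inv, map_inv, ← h5]
      group
  refine ⟨q, hq, Q, u, a, hqp.symm, hQq, hxQ, hu, ha, ?_⟩
  rw [← hw]
  exact haw

end Cfsg.Agent.Lib.Helper12.HHB
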