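import Cfsg.Agent.S3783

/-!
# The Hall--Higman reduction: from `p`-length to a `q`-group acting on the Frattini quotient of `O_p`
-/

set_option autoImplicit false
set_option linter.style.haveILetI false

namespace Cfsg.Agent.Lib.Helper12.HHB

/-- the Frattini subgroup of a subgroup, as a subgroup of the big group -/
def phi {X : Type*} [Group X] (T : Subgroup X) : Subgroup X := (frattini ↥T).map T.subtype

theorem phi_le {X : Type*} [Group X] (T : Subgroup X) : phi T ≤ T := Subgroup.map_subtype_le _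

theorem phi_normal {X : Type*} [Group X] (T : Subgroup X) [hT : T.Normal] : (phi T).Normal := by
  have h := Cfsg.Agent.Lib.Helper1.normalizer_le_normalizer_map_of_characteristic T (frattini ↥T)
  rw [Subgroup.normalizer_eq_top] at h
  exact Subgroup.normalizer_eq_top_iff.1 (top_le_iff.1 h)

theorem pow_mem_phi {X : Type*} [Group X] {p : ℕ} [Fact p.Prime] (T : Subgroup X) [Finite T] (hT : IsPGroup p T)
    (a : X) (ha : a ∈ T) : a ^ p ∈ phi T :=
  ⟨(⟨a, ha⟩ : T) ^ p, Cfsg.Agent.Lib.Helper3.pow_p_mem_frattini hT _, rfl⟩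

open scoped commutatorElement in
theorem comm_mem_phi {X : Type*} [Group X] {p : ℕ} [Fact p.Prime] (T : Subgroup X) [Finite T] (hT : IsPGroup p T)
    (a b : X) (ha : a ∈ T) (hb : b ∈ T) : a * b * a⁻¹ * b⁻¹ ∈ phi T :=
  ⟨⁅(⟨a, ha⟩ : T), ⟨b, hb⟩⁆, Cfsg.Agent.Lib.Helper3.commutator_le_frattini hT
    (Subgroup.commutator_mem_commutator (Subgroup.mem_top _) (Subgroup.mem_top _)), rfl⟩

open scoped commutatorElement in
open Cfsg.Agent.Lib.Helper1 Cfsg.Agent.Lib.Helper66 Cfsg.Agent.Lib.Helper30 Cfsg.Agent.Lib.Helper14 in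
/-- `X` `p`-solvable with `O_{p'}(X) = 1`, `T = O_p(X)`, `x` of order `p^(n+1)` modulo `T`.  Then, after multiplying `x` by an
element of `T`, `x` normalises a `q`-subgroup `Q` (`q ≠ p`) and for some `u ∈ Q` the commutator `[u, x^(p^n)]`
acts nontrivially on `T/Φ(T)`. -/
theorem keyQ {X : Type*} [Group X] [Finite X] {p : ℕ} [hp : Fact p.Prime]
    (hX : Cfsg.IsPSolvable p X) (h0 : Cfsg.pPrimeCore p X = ⊥) (n : ℕ)
    (x : X) (hx : x ^ p ^ (n + 1) ∈ Cfsg.pCore p X) (hxn : x ^ p ^ n ∉ Cfsg.pCore p X) :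
    ∃ (t x' : X) (q : ℕ) (_ : Fact q.Prime) (Q : Subgroup X) (u a : X), t ∈ Cfsg.pCore p X ∧ x = t * x' ∧ p ≠ q ∧
      IsPGroup q Q ∧ (∀ b ∈ Q, x' * b * x'⁻¹ ∈ Q) ∧ u ∈ Q ∧ a ∈ Cfsg.pCore p X ∧
      (u * x' ^ p ^ n * u⁻¹ * (x' ^ p ^ n)⁻¹) * a * (u * x' ^ p ^ n * u⁻¹ * (x' ^ p ^ n)⁻¹)⁻¹ * a⁻¹
        ∉ phi (Cfsg.pCore p X) := by
  obtain ⟨T, hTn, hT, hbotq⟩ : ∃ (T : Subgroup X) (_ : T.Normal),
      T = Cfsg.pCore p X ∧ Cfsg.pCore p (X ⧸ T) = ⊥ :=
    ⟨_, Cfsg.Agent.Lib.Helper1.pCore_normal p X, rfl, Cfsg.Agent.Lib.Helper31.pCore_quotient_pCore p⟩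
  rw [← hT] at hxn hx ⊢
  have hTp : IsPGroup p T := hT ▸ Cfsg.Agent.Lib.Helper1.pCore_isPGroup p X
  have hTc : Subgroup.centralizer (T : Set X) ≤ T := hT ▸ Cfsg.Agent.Lib.Helper80.centralizer_pCore_le hX h0
  have hY : Cfsg.IsPSolvable p (X ⧸ T) :=
    Cfsg.Agent.Lib.Helper80.isPSolvable_of_surjective hp.out (QuotientGroup.mk' T)
      (QuotientGroup.mk'_surjective T) hX
  have hMcent := Cfsg.Agent.Lib.Helper55.centralizer_pPrimeCore_le hY hbotq
  obtain ⟨M, hM⟩ : ∃ M, M = Cfsg.pPrimeCore p (X ⧸ T) := ⟨_, rfl⟩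
  rw [← hM] at hMcent
  haveI hMn : M.Normal := hM ▸ Cfsg.Agent.Lib.Helper1.pPrimeCore_normal p (X ⧸ T)
  have hMc : (Nat.card M).Coprime p := hM ▸ Cfsg.Agent.Lib.Helper1.pPrimeCore_coprime p (X ⧸ T)
  obtain ⟨K, hK⟩ : ∃ K, K = M.comap (QuotientGroup.mk' T) := ⟨_, rfl⟩
  haveI hKn : K.Normal := hK ▸ inferInstance
  have hTK : T ≤ K := hK ▸ le_comap_mk' T M
  have hKrel : T.relIndex K = Nat.card M := hK ▸ relIndex_comap_mk' T M
  -- a complement B of T in K
  obtain ⟨B, hBc, hKB⟩ : ∃ B : Subgroup X, (Nat.card B).Coprime p ∧ K = B ⊔ T := by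
    haveI : (T.subgroupOf K).Normal := inferInstance
    have hcop : Nat.Coprime (Nat.card (T.subgroupOf K)) (T.subgroupOf K).index := by
      obtain ⟨n, hn⟩ := IsPGroup.iff_card.1 hTp
      rw [card_subgroupOf hTK, hn]
      change Nat.Coprime _ (T.relIndex K)
      rw [hKrel]
      exact (Nat.Coprime.pow_right n hMc).symm
    obtain ⟨B', hB'⟩ := Subgroup.exists_right_complement'_of_coprime hcop
    refine ⟨B'.map K.subtype, ?_, ?_⟩
    · rw [Subgroup.card_map_of_injective K.subtype_injective, ← hB'.symm.index_eq_card]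
      change Nat.Coprime (T.relIndex K) p
      rw [hKrel]; exact hMc
    · have h1 := hB'.sup_eq_top
      have h2 := congrArg (Subgroup.map K.subtype) h1
      rw [Subgroup.map_sup, Subgroup.subgroupOf_map_subtype, inf_eq_left.2 hTK,
        ← MonoidHom.range_eq_map, Subgroup.range_subtype] at h2
      rw [sup_comm]; exact h2.symm
  have hBK : B ≤ K := hKB ▸ le_sup_left
  -- Frattini argument
  have hfrat : ∀ g : X, ∃ t ∈ T, ∃ n ∈ Subgroup.normalizer (B : Set X), g = t * n := by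
    intro g
    have h1 : cj g B ≤ B ⊔ T := by
      rw [← hKB]
      calc cj g B ≤ cj g K := cj_mono g hBK
        _ = K := cj_normal g K
    obtain ⟨x, hx, hle⟩ := le_cj_of_le_sup T hTp B (cj g B) hBc (by rw [card_cj]; exact hBc) h1
    have heq : cj g B = cj x B := by
      apply Subgroup.eq_of_le_of_card_ge hle
      rw [card_cj, card_cj]
    refine ⟨x, hx, x⁻¹ * g, ?_, by group⟩
    apply mem_normalizer_of_cj_eq
    rw [cj_mul, heq, cj_inv_cj]
  have hmkpow : ∀ (t g : X), t ∈ T → ∀ k : ℕ, ((t * g) ^ k ∈ T ↔ g ^ k ∈ T) := by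
    intro t g ht k
    rw [← QuotientGroup.eq_one_iff, ← QuotientGroup.eq_one_iff, QuotientGroup.mk_pow, QuotientGroup.mk_pow,
      QuotientGroup.mk_mul, (QuotientGroup.eq_one_iff t).2 ht, one_mul]
  obtain ⟨t, ht, x', hx'N, rfl⟩ := hfrat x
  rw [hmkpow t x' ht] at hxn hx
  obtain ⟨y, hy⟩ : ∃ y, y = x' ^ p ^ n := ⟨_, rfl⟩
  rw [← hy] at hxn
  have hyp1 : y ^ p ∈ T := by rw [hy, ← pow_mul, ← pow_succ]; exact hx
  have hyB : y ∉ Subgroup.centralizer (B : Set X) := by
    intro hyc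
    have h1 : QuotientGroup.mk' T y ∈ Subgroup.centralizer (M : Set (X ⧸ T)) := by
      rw [Subgroup.mem_centralizer_iff]
      intro m hm
      obtain ⟨g, rfl⟩ := QuotientGroup.mk'_surjective T m
      have hgK : g ∈ K := by rw [hK]; exact hm
      rw [hKB, ← SetLike.mem_coe, Subgroup.mul_normal] at hgK
      obtain ⟨b, hb, t', ht', rfl⟩ := hgK
      have e1 : QuotientGroup.mk' T (b * t') = QuotientGroup.mk' T b := by
        rw [map_mul, QuotientGroup.mk'_apply T t', (QuotientGroup.eq_one_iff t').2 ht', mul_one]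
      rw [e1, ← map_mul, ← map_mul, (Subgroup.mem_centralizer_iff.1 hyc) b hb]
    have h2 := hMcent h1
    have d1 : orderOf (QuotientGroup.mk' T y) ∣ Nat.card M := Subgroup.orderOf_dvd_natCard M h2
    have d2 : orderOf (QuotientGroup.mk' T y) ∣ p := by
      apply orderOf_dvd_of_pow_eq_one
      rw [← map_pow]
      exact (QuotientGroup.eq_one_iff _).2 hyp1
    have h3 := Nat.eq_one_of_dvd_coprimes hMc d1 d2
    rw [orderOf_eq_one_iff] at h3
    exact hxn ((QuotientGroup.eq_one_iff y).1 h3)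
  have hzp : IsPGroup p (Subgroup.zpowers x') := by
    obtain ⟨j, hj⟩ := hTp ⟨_, hx⟩
    have hj' : x' ^ p ^ (n + 1 + j) = 1 := by
      have := congrArg Subtype.val hj
      rw [pow_add, pow_mul]
      exact this
    rintro ⟨g, hg⟩
    obtain ⟨k, rfl⟩ := Subgroup.mem_zpowers_iff.1 hg
    refine ⟨n + 1 + j, Subtype.ext ?_⟩
    show (x' ^ k) ^ p ^ (n + 1 + j) = 1
    rw [← zpow_natCast, ← zpow_mul, mul_comm, zpow_mul, zpow_natCast, hj', one_zpow]
  have hzN : Subgroup.zpowers x' ≤ Subgroup.normalizer (B : Set X) := Subgroup.zpowers_le.2 hx'N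
  have hBp : ¬ p ∣ Nat.card B := (Nat.Prime.coprime_iff_not_dvd hp.out).1 hBc.symm
  obtain ⟨q, hq, R, hRN, hRy⟩ : ∃ (q : ℕ) (_ : Fact q.Prime) (R : Sylow q B),
      Subgroup.zpowers x' ≤ Subgroup.normalizer (((R : Subgroup B).map B.subtype : Subgroup X) : Set X) ∧
      ¬ ((R : Subgroup B).map B.subtype ≤ Subgroup.centralizer ({y} : Set X)) := by
    by_contra hcon
    push Not at hcon
    apply hyB
    have hC : B ⊓ Subgroup.centralizer ({y} : Set X) = B := by
      apply Subgroup.eq_of_le_of_card_ge inf_le_left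
      apply Nat.le_of_dvd Nat.card_pos
      rw [← Nat.factorization_prime_le_iff_dvd Nat.card_pos.ne' Nat.card_pos.ne']
      intro q hq
      haveI : Fact q.Prime := ⟨hq⟩
      obtain ⟨R, hR⟩ := Cfsg.Agent.Lib.Helper75.exists_invariant_sylow (q := q)
        (Subgroup.zpowers x') B hzp hzN hBp
      have h1 := hcon q ⟨hq⟩ R hR
      have h2 : (R : Subgroup B).map B.subtype ≤ B ⊓ Subgroup.centralizer ({y} : Set X) :=
        le_inf (Subgroup.map_subtype_le _) h1
      have h3 := Subgroup.card_dvd_of_le h2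
      rw [Subgroup.card_map_of_injective B.subtype_injective, Sylow.card_eq_multiplicity] at h3
      exact (Nat.Prime.pow_dvd_iff_le_factorization hq Nat.card_pos.ne').1 h3
    rw [Subgroup.mem_centralizer_iff]
    intro b hb
    have h4 : b ∈ B ⊓ Subgroup.centralizer ({y} : Set X) := hC.symm ▸ hb
    exact (Subgroup.mem_centralizer_singleton_iff.1 (Subgroup.mem_inf.1 h4).2)
  obtain ⟨Q, hQ⟩ : ∃ Q, Q = (R : Subgroup B).map B.subtype := ⟨_, rfl⟩
  rw [← hQ] at hRN hRy
  have hQq : IsPGroup q Q := hQ ▸ R.2.map B.subtype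
  have hQB : Q ≤ B := hQ ▸ Subgroup.map_subtype_le _
  have hQc : (Nat.card Q).Coprime p := Nat.Coprime.coprime_dvd_left (Subgroup.card_dvd_of_le hQB) hBc
  have hqp : q ≠ p := by
    rintro rfl
    have h1 : Q = ⊥ := by
      have := inf_eq_bot_of_pgroup_coprime hQq hQc
      rwa [inf_idem] at this
    apply hRy; rw [h1]; exact bot_le
  obtain ⟨u, hu, huy⟩ : ∃ u ∈ Q, u ∉ Subgroup.centralizer ({y} : Set X) := SetLike.not_le_iff_exists.1 hRy
  obtain ⟨w, hw⟩ : ∃ w, w = u * y * u⁻¹ * y⁻¹ := ⟨_, rfl⟩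
  have hxQ : ∀ a ∈ Q, x' * a * x'⁻¹ ∈ Q := fun a ha =>
    (Subgroup.mem_normalizer_iff.1 (hRN (Subgroup.mem_zpowers x')) a).1 ha
  have hwQ : w ∈ Q := by
    have : w = u * (y * u⁻¹ * y⁻¹) := by rw [hw]; group
    rw [this, hy]
    exact Q.mul_mem hu (Cfsg.Agent.Lib.Helper67.conj_pow_mem Q x' hxQ _ _ (Q.inv_mem hu))
  have hw1 : w ≠ 1 := by
    intro h
    apply huy
    rw [Subgroup.mem_centralizer_singleton_iff]
    rw [hw] at h
    have h2 := congrArg (fun z => z * y * u) h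
    simpa [mul_assoc] using h2
  have hwT : w ∉ Subgroup.centralizer (T : Set X) := by
    intro h
    have h2 : w ∈ T ⊓ Q := Subgroup.mem_inf.2 ⟨hTc h, hwQ⟩
    rw [inf_eq_bot_of_pgroup_coprime hTp hQc] at h2
    exact hw1 h2
  obtain ⟨a, ha, haw⟩ : ∃ a ∈ T, w * a * w⁻¹ * a⁻¹ ∉ phi T := by
    by_contra hcon
    push Not at hcon
    apply hwT
    have hwo : (orderOf w).Coprime p :=
      Nat.Coprime.coprime_dvd_left (Subgroup.orderOf_dvd_natCard Q hwQ) hQc
    have h3 := Cfsg.Agent.Lib.Helper1.coprime_trivial_on_frattini_quotient (Subgroup.zpowers w) T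
      (by rw [Subgroup.normalizer_eq_top]; exact le_top)
      (Cfsg.Agent.Lib.Helper53.coprime_card_zpowers (hTp.to_subgroup _) hwo) ?_
    · exact h3 (Subgroup.mem_zpowers w)
    · -- the elements acting trivially on T / phi T form a subgroup
      haveI := phi_normal T
      have hz : Subgroup.zpowers w ≤ (Subgroup.centralizer ((T.map (QuotientGroup.mk' (phi T)) : Subgroup _) : Set (X ⧸ phi T))).comap
          (QuotientGroup.mk' (phi T)) := by
        rw [Subgroup.zpowers_le, Subgroup.mem_comap, Subgroup.mem_centralizer_iff]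
        rintro _ ⟨a, ha, rfl⟩
        have h4 := hcon a ha
        rw [← QuotientGroup.eq_one_iff] at h4
        have h5 : QuotientGroup.mk' (phi T) (w * a * w⁻¹ * a⁻¹) = 1 := h4
        rw [map_mul, map_mul, map_mul, map_inv, map_inv] at h5
        have h6 := congrArg (fun z => z * QuotientGroup.mk' (phi T) a * QuotientGroup.mk' (phi T) w) h5
        simpa [mul_assoc] using h6.symm
      intro c hc k hk
      have h4 := hz hc
      rw [Subgroup.mem_comap, Subgroup.mem_centralizer_iff] at h4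
      have h5 := h4 _ (Subgroup.mem_map_of_mem _ hk)
      show c * k * c⁻¹ * k⁻¹ ∈ phi T
      rw [← QuotientGroup.eq_one_iff]
      show QuotientGroup.mk' (phi T) (c * k * c⁻¹ * k⁻¹) = 1
      rw [map_mul, map_mul, map_mul, map_inv, map_inv, ← h5]
      group
  refine ⟨t, x', q, hq, Q, u, a, ht, rfl, hqp.symm, hQq, hxQ, hu, ha, ?_⟩
  rw [← hy, ← hw]
  exact haw

end Cfsg.Agent.Lib.Helper12.HHB
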