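import Cfsg.Agent.Lib.Helper12.HHB.QDefs
import Cfsg.Agent.Lib.Helper12.HHB.MinD
import Cfsg.Agent.Lib.Helper12.HHB.Fin
import Cfsg.Agent.Lib.Helper68.HH3TRI
import Cfsg.Agent.Lib.Helper68.HHBNC
import Cfsg.Agent.Lib.Helper68.HHBIDX

/-!
# Lemma LQ: a central commutator of a `p`-group acting "cubically" centralises every invariant `q`-group
-/

set_option autoImplicit false
set_option linter.style.haveILetI false

namespace Cfsg.Agent.Lib.Helper12.HHB

open Module Cfsg.Agent.Lib.Helper68.HHB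

section basics

variable {K : Type*} [Field K] {V : Type*} [AddCommGroup V] [Module K V]

theorem res_sub_one_apply (W : Submodule K V) (u : stab W) (w : W) :
    (((((resHom W u : (Module.End K W)ˣ) : Module.End K W) - 1) w : W) : V)
      = (((u : (Module.End K V)ˣ) : Module.End K V) - 1) (w : V) := by
  simp [LinearMap.sub_apply]

theorem quot_sub_one_mk (W : Submodule K V) (u : stab W) (v : V) :
    (((quotHom W u : (Module.End K (V ⧸ W))ˣ) : Module.End K (V ⧸ W)) - 1) (Submodule.Quotient.mk v)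
      = Submodule.Quotient.mk ((((u : (Module.End K V)ˣ) : Module.End K V) - 1) v) := by
  simp [LinearMap.sub_apply]

theorem res_prod3 (W : Submodule K V) (x y z : stab W)
    (h : (((x : (Module.End K V)ˣ) : Module.End K V) - 1) * (((y : (Module.End K V)ˣ) : Module.End K V) - 1)
      * (((z : (Module.End K V)ˣ) : Module.End K V) - 1) = 0) :
    (((resHom W x : (Module.End K W)ˣ) : Module.End K W) - 1) * (((resHom W y : (Module.End K W)ˣ) : Module.End K W) - 1)
      * (((resHom W z : (Module.End K W)ˣ) : Module.End K W) - 1) = 0 := by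
  apply LinearMap.ext
  intro w
  apply Subtype.ext
  rw [Module.End.mul_apply, Module.End.mul_apply, res_sub_one_apply, res_sub_one_apply, res_sub_one_apply]
  have := LinearMap.congr_fun h (w : V)
  simpa [Module.End.mul_apply] using this

theorem res_prod2 (W : Submodule K V) (x y : stab W)
    (h : (((x : (Module.End K V)ˣ) : Module.End K V) - 1) * (((y : (Module.End K V)ˣ) : Module.End K V) - 1) = 0) :
    (((resHom W x : (Module.End K W)ˣ) : Module.End K W) - 1)
      * (((resHom W y : (Module.End K W)ˣ) : Module.End K W) - 1) = 0 := by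
  apply LinearMap.ext
  intro w
  apply Subtype.ext
  rw [Module.End.mul_apply, res_sub_one_apply, res_sub_one_apply]
  have := LinearMap.congr_fun h (w : V)
  simpa [Module.End.mul_apply] using this

theorem quot_prod3 (W : Submodule K V) (x y z : stab W)
    (h : (((x : (Module.End K V)ˣ) : Module.End K V) - 1) * (((y : (Module.End K V)ˣ) : Module.End K V) - 1)
      * (((z : (Module.End K V)ˣ) : Module.End K V) - 1) = 0) :
    (((quotHom W x : (Module.End K (V ⧸ W))ˣ) : Module.End K (V ⧸ W)) - 1)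
      * (((quotHom W y : (Module.End K (V ⧸ W))ˣ) : Module.End K (V ⧸ W)) - 1)
      * (((quotHom W z : (Module.End K (V ⧸ W))ˣ) : Module.End K (V ⧸ W)) - 1) = 0 := by
  apply LinearMap.ext
  intro w
  obtain ⟨v, rfl⟩ := Submodule.Quotient.mk_surjective W w
  rw [Module.End.mul_apply, Module.End.mul_apply, quot_sub_one_mk, quot_sub_one_mk, quot_sub_one_mk]
  have := LinearMap.congr_fun h v
  rw [Module.End.mul_apply, Module.End.mul_apply] at this
  rw [this]
  simp

theorem quot_prod2 (W : Submodule K V) (x y : stab W)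
    (h : (((x : (Module.End K V)ˣ) : Module.End K V) - 1) * (((y : (Module.End K V)ˣ) : Module.End K V) - 1) = 0) :
    (((quotHom W x : (Module.End K (V ⧸ W))ˣ) : Module.End K (V ⧸ W)) - 1)
      * (((quotHom W y : (Module.End K (V ⧸ W))ˣ) : Module.End K (V ⧸ W)) - 1) = 0 := by
  apply LinearMap.ext
  intro w
  obtain ⟨v, rfl⟩ := Submodule.Quotient.mk_surjective W w
  rw [Module.End.mul_apply, quot_sub_one_mk, quot_sub_one_mk]
  have := LinearMap.congr_fun h v
  rw [Module.End.mul_apply] at this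
  rw [this]
  simp

/-- transport of the data along a homomorphism -/
theorem dataQ_map {V' : Type*} [AddCommGroup V'] [Module K V'] {p q : ℕ}
    {Q D : Subgroup (Module.End K V)ˣ} {b b' c : (Module.End K V)ˣ} (h : DataQ p q Q D b b' c)
    (H : Subgroup (Module.End K V)ˣ) (π : H →* (Module.End K V')ˣ) (hQ : Q ≤ H) (hD : D ≤ H)
    (hcH : c ∈ H)
    (hnc : ∃ g, ∃ hg : g ∈ Q, π ⟨c, hcH⟩ * π ⟨g, hQ hg⟩ ≠ π ⟨g, hQ hg⟩ * π ⟨c, hcH⟩)
    (h3 : ∀ x y z : H, (((x : (Module.End K V)ˣ) : Module.End K V) - 1) * (((y : (Module.End K V)ˣ) : Module.End K V) - 1)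
      * (((z : (Module.End K V)ˣ) : Module.End K V) - 1) = 0 →
      (((π x : (Module.End K V')ˣ) : Module.End K V') - 1) * (((π y : (Module.End K V')ˣ) : Module.End K V') - 1)
      * (((π z : (Module.End K V')ˣ) : Module.End K V') - 1) = 0)
    (h2 : ∀ x y : H, (((x : (Module.End K V)ˣ) : Module.End K V) - 1) * (((y : (Module.End K V)ˣ) : Module.End K V) - 1) = 0 →
      (((π x : (Module.End K V')ˣ) : Module.End K V') - 1) * (((π y : (Module.End K V')ˣ) : Module.End K V') - 1) = 0) :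
    DataQ p q ((Q.subgroupOf H).map π) ((D.subgroupOf H).map π) (π ⟨b, hD h.hb⟩) (π ⟨b', hD h.hb'⟩) (π ⟨c, hcH⟩) := by
  haveI := h.finQ
  haveI := h.finD
  have hfin : ∀ R : Subgroup (Module.End K V)ˣ, Finite R → Finite ((R.subgroupOf H).map π) := by
    intro R hR
    have hfin : Finite (R.subgroupOf H) :=
      Finite.of_injective (fun a : R.subgroupOf H => (⟨a.1.1, a.2⟩ : R))
        (fun a b hab => Subtype.ext (Subtype.ext (congrArg (fun z : R => (z : (Module.End K V)ˣ)) hab)))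
    exact Finite.of_surjective (fun a : R.subgroupOf H => (⟨π a.1, Subgroup.mem_map_of_mem π a.2⟩ :
      (R.subgroupOf H).map π)) (by
        rintro ⟨_, a, ha, rfl⟩
        exact ⟨⟨a, ha⟩, rfl⟩)
  refine ⟨hfin Q inferInstance, (h.pgrpQ.comap_subtype (K := H)).map π, hfin D inferInstance,
    (h.pgrpD.comap_subtype (K := H)).map π, ?_, ?_, ?_, ?_, ?_, ?_, ?_, ?_⟩
  · rintro _ ⟨d, hd, rfl⟩ _ ⟨a, ha, rfl⟩
    refine ⟨d * a * d⁻¹, ?_, by simp⟩
    exact h.norm _ hd _ ha
  · exact Subgroup.mem_map_of_mem π (show (⟨b, hD h.hb⟩ : H) ∈ D.subgroupOf H from h.hb)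
  · exact Subgroup.mem_map_of_mem π (show (⟨b', hD h.hb'⟩ : H) ∈ D.subgroupOf H from h.hb')
  · rw [← map_inv, ← map_inv, ← map_mul, ← map_mul, ← map_mul]
    congr 1
    exact Subtype.ext h.hc
  · rintro _ ⟨d, hd, rfl⟩
    rw [← map_mul, ← map_mul]
    congr 1
    exact Subtype.ext (h.cen _ hd)
  · obtain ⟨g, hg, hne⟩ := hnc
    exact ⟨π ⟨g, hQ hg⟩, Subgroup.mem_map_of_mem π (show (⟨g, hQ hg⟩ : H) ∈ Q.subgroupOf H from hg), hne⟩
  · rintro _ ⟨d, hd, rfl⟩
    exact h3 d d ⟨c, hcH⟩ (h.h1 _ hd)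
  · exact h2 ⟨c, hcH⟩ ⟨c, hcH⟩ h.h2

/-- a minimal `D`-invariant subgroup not centralised by `c` -/
theorem exists_minD {p q : ℕ} {Q D : Subgroup (Module.End K V)ˣ} {b b' c : (Module.End K V)ˣ}
    (h : DataQ p q Q D b b' c) : ∃ Q₀ : Subgroup (Module.End K V)ˣ, Q₀ ≤ Q ∧ DataQ p q Q₀ D b b' c ∧
      ∀ Q' : Subgroup (Module.End K V)ˣ, Q' ≤ Q₀ → (∀ d ∈ D, ∀ g ∈ Q', d * g * d⁻¹ ∈ Q') → Q' ≠ Q₀ →
        ∀ g ∈ Q', c * g = g * c := by
  haveI := h.finQ
  obtain ⟨k, hk⟩ : ∃ k, Nat.card Q = k := ⟨_, rfl⟩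
  induction k using Nat.strong_induction_on generalizing Q with
  | _ k ih =>
    by_cases hmin : ∀ Q' : Subgroup (Module.End K V)ˣ, Q' ≤ Q → (∀ d ∈ D, ∀ g ∈ Q', d * g * d⁻¹ ∈ Q') → Q' ≠ Q →
        ∀ g ∈ Q', c * g = g * c
    · exact ⟨Q, le_rfl, h, hmin⟩
    · push Not at hmin
      obtain ⟨Q', hle, hinv, hne, g, hg, hgne⟩ := hmin
      haveI : Finite Q' := Finite.of_injective (Subgroup.inclusion hle) (Subgroup.inclusion_injective hle)
      have hD : DataQ p q Q' D b b' c :=
        ⟨inferInstance, h.pgrpQ.to_le hle, h.finD, h.pgrpD, hinv, h.hb, h.hb', h.hc, h.cen, ⟨g, hg, hgne⟩, h.h1, h.h2⟩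
      have hlt : Nat.card Q' < k := by
        rw [← hk]
        rcases lt_or_ge (Nat.card Q') (Nat.card Q) with h1 | h1
        · exact h1
        · exact absurd (Subgroup.eq_of_le_of_card_ge hle h1) hne
      obtain ⟨Q₀, h1, h2, h3⟩ := ih _ hlt hD inferInstance rfl
      exact ⟨Q₀, h1.trans hle, h2, h3⟩

theorem coe_comm_iff' (a b : (Module.End K V)ˣ) :
    (a : Module.End K V) * (b : Module.End K V) = (b : Module.End K V) * (a : Module.End K V) ↔ a * b = b * a := by
  rw [← Units.val_mul, ← Units.val_mul, Units.val_inj]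

end basics

section main

universe u v

theorem lq_aux {K : Type u} [Field K] [IsAlgClosed K] {p q : ℕ} [hp : Fact p.Prime] [hq : Fact q.Prime]
    [CharP K p] (hpq : p ≠ q) (hp2 : p ≠ 2) (n : ℕ) :
    ∀ (V : Type v) [AddCommGroup V] [Module K V] [FiniteDimensional K V], Module.finrank K V = n →
      ∀ (Q D : Subgroup (Module.End K V)ˣ) (b b' c : (Module.End K V)ˣ), DataQ p q Q D b b' c → False := by
  induction n using Nat.strong_induction_on with
  | _ n ih =>
    intro V _ _ _ hn Q D b b' c h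
    obtain ⟨Q₀, -, h₀, hmin⟩ := exists_minD h
    haveI := h₀.finQ
    haveI := h₀.finD
    haveI : Nontrivial V := by
      by_contra hV
      rw [not_nontrivial_iff_subsingleton] at hV
      obtain ⟨g, -, hne⟩ := h.nc
      exact hne (Subsingleton.elim _ _)
    have hcD : c ∈ D := by
      rw [h₀.hc]
      exact D.mul_mem (D.mul_mem (D.mul_mem h₀.hb h₀.hb') (D.inv_mem h₀.hb)) (D.inv_mem h₀.hb')
    have hcQ : ∀ g ∈ Q₀, c * g * c⁻¹ ∈ Q₀ := h₀.norm c hcD
    by_cases hirr : ∀ W : Submodule K V, Q₀ ≤ stab W → D ≤ stab W → W = ⊥ ∨ W = ⊤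
    · -- the irreducible case
      have hc1 : c ≠ 1 := by
        rintro rfl
        obtain ⟨g, -, hne⟩ := h₀.nc
        exact hne (by simp)
      have hC : ScalarComm Q₀ := scalarComm_of_irred (p := p) hp2 Q₀ D h₀.pgrpD h₀.norm b b' c h₀.hb h₀.hb' h₀.hc hc1
        h₀.h1 hirr
      have hpow : ∀ k, 2 ≤ k → ((c : Module.End K V) - 1) ^ k = 0 := by
        intro k hk
        obtain ⟨j, rfl⟩ := Nat.exists_eq_add_of_le hk
        rw [pow_add, pow_two, h₀.h2, zero_mul]
      have hcp : c ^ p = 1 := by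
        have h1 : ((c : Module.End K V) - 1) ^ p = 0 := hpow p hp.out.two_le
        have h2 : ((c : Module.End K V) - 1) ^ p = (c : Module.End K V) ^ p - 1 := by
          have := idx_sub_one_pow (p := p) (c : Module.End K V) 1
          simpa using this
        rw [h2, sub_eq_zero] at h1
        exact Units.ext (by rw [Units.val_pow_eq_pow_val, h1, Units.val_one])
      obtain ⟨hcen, -⟩ := min_structureD hpq Q₀ h₀.pgrpQ D c (fun X hX => (h₀.cen X hX).symm) hcp h₀.norm hcQ hmin h₀.nc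
      have hsc : ∀ g ∈ Q₀, (∀ k ∈ Q₀, g * k = k * g) → ∃ a : K, (g : Module.End K V) = a • 1 := by
        intro g _ hgk
        exact hC _ (fun k hk => (coe_comm_iff' g k).2 (hgk k hk))
      have hreg : ∀ g ∈ Q₀, c * g = g * c → ∃ a : K, (g : Module.End K V) = a • 1 :=
        fun g hg hcomm => hsc g hg (hcen g hg hcomm)
      have hns : ∃ g ∈ Q₀, ¬ ∃ a : K, (g : Module.End K V) = a • 1 := by
        obtain ⟨g, hg, hne⟩ := h₀.nc
        refine ⟨g, hg, ?_⟩
        rintro ⟨a, ha⟩
        apply hne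
        rw [← coe_comm_iff', ha]
        simp
      have hp3 : 2 ≤ p - 1 := by
        have := hp.out.two_le
        omega
      exact crit_false hpq hp2 Q₀ h₀.pgrpQ hC b b' c h₀.hc (h₀.cen b h₀.hb) (h₀.cen b' h₀.hb') hcQ hreg hns
        (hpow _ hp3)
    · push Not at hirr
      obtain ⟨W, hQW, hDW, hW0, hW1⟩ := hirr
      have hcW : c ∈ stab W := hDW hcD
      rcases nc_res_or_quot hpq Q₀ h₀.pgrpQ c hcQ h₀.nc W hQW hcW with hnc | hnc
      · have hD := dataQ_map h₀ (stab W) (resHom W) hQW hDW hcW hnc (res_prod3 W) (res_prod2 W)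
        have hlt : Module.finrank K W < n := hn ▸ Submodule.finrank_lt hW1
        exact ih _ hlt W rfl _ _ _ _ _ hD
      · have hD := dataQ_map h₀ (stab W) (quotHom W) hQW hDW hcW hnc (quot_prod3 W) (quot_prod2 W)
        have hlt : Module.finrank K (V ⧸ W) < n := by
          have h1 := Submodule.finrank_quotient_add_finrank W
          have h2 : 0 < Module.finrank K W := by
            rw [Module.finrank_pos_iff]
            exact Submodule.nontrivial_iff_ne_bot.2 hW0
          omega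
        exact ih _ hlt (V ⧸ W) rfl _ _ _ _ _ hD

/-- **Lemma LQ.** -/
theorem lq {K : Type u} [Field K] [IsAlgClosed K] {p q : ℕ} [Fact p.Prime] [Fact q.Prime]
    [CharP K p] (hpq : p ≠ q) (hp2 : p ≠ 2) {V : Type v} [AddCommGroup V] [Module K V] [FiniteDimensional K V]
    (Q D : Subgroup (Module.End K V)ˣ) (b b' c : (Module.End K V)ˣ) (h : DataQ p q Q D b b' c) : False :=
  lq_aux hpq hp2 _ V rfl Q D b b' c h

end main

end Cfsg.Agent.Lib.Helper12.HHB
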