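import Cfsg.Agent.Lib.Helper12.HHB.Defs
import Cfsg.Agent.Lib.Helper15.HHBCOMM
import Cfsg.Agent.Lib.Helper15.HHBIMPR
import Cfsg.Agent.Lib.Helper15.HHBIMPRIDX
import Cfsg.Agent.Lib.Helper68.HHBIDX
import Cfsg.Agent.Lib.Helper68.HHBMIN
import Cfsg.Agent.Lib.Helper68.HHBNC
import Cfsg.Agent.Lib.Helper61.HHUnits
import Cfsg.Agent.Lib.Helper67.HHAbelian

/-!
# Hall--Higman Theorem B in operator form: the main induction
-/

set_option autoImplicit false
set_option linter.style.haveILetI false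

namespace Cfsg.Agent.Lib.Helper12.HHB

open Module Cfsg.Agent.Lib.Helper15.HHB Cfsg.Agent.Lib.Helper68.HHB Cfsg.Agent.Lib.Helper61.HH

section basics

variable {K : Type*} [Field K] {V : Type*} [AddCommGroup V] [Module K V]

theorem IsIdx.unique {N : Module.End K V} {s t : ℕ} (hs : IsIdx N s) (ht : IsIdx N t) : s = t := by
  rcases lt_trichotomy s t with h | h | h
  · exact absurd hs.1 (ht.2 s h)
  · exact h
  · exact absurd ht.1 (hs.2 t h)

theorem Data.norm' {p q : ℕ} [hp : Fact p.Prime] {Q : Subgroup (Module.End K V)ˣ} {X : (Module.End K V)ˣ} {n : ℕ}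
    (h : Data p q Q X n) : ∀ g ∈ Q, X⁻¹ * g * X ∈ Q := by
  intro g hg
  have h1 := Cfsg.Agent.Lib.Helper67.conj_pow_mem Q X h.norm (p ^ (n + 1) - 1) g hg
  have hpos : 0 < p ^ (n + 1) := pow_pos hp.out.pos _
  have h2 : X ^ (p ^ (n + 1) - 1) = X⁻¹ := by
    have : X ^ (p ^ (n + 1) - 1) * X = 1 := by
      rw [← pow_succ, Nat.sub_add_cancel hpos, h.ord]
    exact eq_inv_of_mul_eq_one_left this
  rw [h2, inv_inv] at h1
  exact h1

theorem Data.norm_pow {p q : ℕ} {Q : Subgroup (Module.End K V)ˣ} {X : (Module.End K V)ˣ} {n : ℕ}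
    (h : Data p q Q X n) (j : ℕ) : ∀ g ∈ Q, X ^ j * g * (X ^ j)⁻¹ ∈ Q :=
  Cfsg.Agent.Lib.Helper67.conj_pow_mem Q X h.norm j

/-- transport of the data along a homomorphism -/
theorem data_map {V' : Type*} [AddCommGroup V'] [Module K V'] {p q : ℕ}
    {Q : Subgroup (Module.End K V)ˣ} {X : (Module.End K V)ˣ} {n : ℕ} (h : Data p q Q X n)
    (H : Subgroup (Module.End K V)ˣ) (π : H →* (Module.End K V')ˣ) (hQ : Q ≤ H) (hX : X ∈ H)
    (hnc : ∃ g, ∃ hg : g ∈ Q, π ⟨X ^ p ^ n, H.pow_mem hX _⟩ * π ⟨g, hQ hg⟩ ≠ π ⟨g, hQ hg⟩ * π ⟨X ^ p ^ n, H.pow_mem hX _⟩) :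
    Data p q ((Q.subgroupOf H).map π) (π ⟨X, hX⟩) n := by
  haveI := h.fin
  have hfin : Finite (Q.subgroupOf H) :=
    Finite.of_injective (fun a : Q.subgroupOf H => (⟨a.1.1, a.2⟩ : Q))
      (fun a b hab => Subtype.ext (Subtype.ext (congrArg (fun z : Q => (z : (Module.End K V)ˣ)) hab)))
  refine ⟨?_, ?_, ?_, ?_, ?_⟩
  · exact Finite.of_surjective (fun a : Q.subgroupOf H => (⟨π a.1, Subgroup.mem_map_of_mem π a.2⟩ :
      (Q.subgroupOf H).map π)) (by
        rintro ⟨_, a, ha, rfl⟩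
        exact ⟨⟨a, ha⟩, rfl⟩)
  · exact (h.pgrp.comap_subtype (K := H)).map π
  · rintro _ ⟨a, ha, rfl⟩
    refine ⟨⟨X, hX⟩ * a * ⟨X, hX⟩⁻¹, ?_, by simp⟩
    exact h.norm _ ha
  · rw [← map_pow]
    have : (⟨X, hX⟩ : H) ^ p ^ (n + 1) = 1 := Subtype.ext (by simpa using h.ord)
    rw [this, map_one]
  · obtain ⟨g, hg, hne⟩ := hnc
    refine ⟨π ⟨g, hQ hg⟩, Subgroup.mem_map_of_mem π (show (⟨g, hQ hg⟩ : H) ∈ Q.subgroupOf H from hg), ?_⟩
    rw [← map_pow]
    exact hne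

theorem nonab_of_map {V' : Type*} [AddCommGroup V'] [Module K V']
    {Q : Subgroup (Module.End K V)ˣ} (H : Subgroup (Module.End K V)ˣ) (π : H →* (Module.End K V')ˣ)
    (h : ¬ ∀ a ∈ (Q.subgroupOf H).map π, ∀ b ∈ (Q.subgroupOf H).map π, a * b = b * a) :
    ¬ ∀ a ∈ Q, ∀ b ∈ Q, a * b = b * a := by
  intro hc
  apply h
  rintro _ ⟨a, ha, rfl⟩ _ ⟨b, hb, rfl⟩
  rw [← map_mul, ← map_mul]
  congr 1
  exact Subtype.ext (hc _ ha _ hb)

theorem Concl.mono {p q n s s' : ℕ} {A B : Prop} (h : Concl p q n s' A) (hAB : A → B) (hs : s' ≤ s)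
    (hsP : s ≤ p ^ (n + 1)) : Concl p q n s B := by
  rcases h with h | ⟨n₀, m, h1, h2, h3, h4, h5, h6⟩
  · left; omega
  · exact Or.inr ⟨n₀, m, h1, h2, h3, h4, hAB h5, h6.trans hs⟩

/-- a minimal `X`-invariant subgroup not centralised by `X ^ p ^ n` -/
theorem exists_min {p q : ℕ} {Q : Subgroup (Module.End K V)ˣ} {X : (Module.End K V)ˣ} {n : ℕ}
    (h : Data p q Q X n) : ∃ Q₀ : Subgroup (Module.End K V)ˣ, Q₀ ≤ Q ∧ Data p q Q₀ X n ∧
      ∀ Q' : Subgroup (Module.End K V)ˣ, Q' ≤ Q₀ → (∀ g ∈ Q', X * g * X⁻¹ ∈ Q') → Q' ≠ Q₀ →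
        ∀ g ∈ Q', X ^ p ^ n * g = g * X ^ p ^ n := by
  haveI := h.fin
  obtain ⟨k, hk⟩ : ∃ k, Nat.card Q = k := ⟨_, rfl⟩
  induction k using Nat.strong_induction_on generalizing Q with
  | _ k ih =>
    by_cases hmin : ∀ Q' : Subgroup (Module.End K V)ˣ, Q' ≤ Q → (∀ g ∈ Q', X * g * X⁻¹ ∈ Q') → Q' ≠ Q →
        ∀ g ∈ Q', X ^ p ^ n * g = g * X ^ p ^ n
    · exact ⟨Q, le_rfl, h, hmin⟩
    · push Not at hmin
      obtain ⟨Q', hle, hinv, hne, g, hg, hgne⟩ := hmin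
      haveI : Finite Q' := Finite.of_injective (Subgroup.inclusion hle) (Subgroup.inclusion_injective hle)
      have hD : Data p q Q' X n := ⟨inferInstance, h.pgrp.to_le hle, hinv, h.ord, ⟨g, hg, hgne⟩⟩
      have hlt : Nat.card Q' < k := by
        rw [← hk]
        rcases lt_or_ge (Nat.card Q') (Nat.card Q) with h1 | h1
        · exact h1
        · exact absurd (Subgroup.eq_of_le_of_card_ge hle h1) hne
      obtain ⟨Q₀, h1, h2, h3⟩ := ih _ hlt hD inferInstance rfl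
      exact ⟨Q₀, h1.trans hle, h2, h3⟩

end basics

section crit

variable {K : Type*} [Field K] {V : Type*} [AddCommGroup V] [Module K V]

theorem coe_comm_iff (a b : (Module.End K V)ˣ) :
    (a : Module.End K V) * (b : Module.End K V) = (b : Module.End K V) * (a : Module.End K V) ↔ a * b = b * a := by
  rw [← Units.val_mul, ← Units.val_mul, Units.val_inj]

/-- the critical case -/
theorem crit {p q : ℕ} [hp : Fact p.Prime] [hq : Fact q.Prime] [CharP K p] [IsAlgClosed K] [FiniteDimensional K V]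
    (hpq : p ≠ q)
    {Q : Subgroup (Module.End K V)ˣ} {X : (Module.End K V)ˣ} {n s : ℕ} (h : Data p q Q X n)
    (hmin : ∀ Q' : Subgroup (Module.End K V)ˣ, Q' ≤ Q → (∀ g ∈ Q', X * g * X⁻¹ ∈ Q') → Q' ≠ Q →
        ∀ g ∈ Q', X ^ p ^ n * g = g * X ^ p ^ n)
    (hC : ScalarComm Q) (hs : IsIdx ((X : Module.End K V) - 1) s) :
    Concl p q n s (¬ ∀ a ∈ Q, ∀ b ∈ Q, a * b = b * a) := by
  haveI := h.fin
  obtain ⟨Y, hY⟩ : ∃ Y, Y = X ^ p ^ n := ⟨_, rfl⟩
  have hnc := h.nc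
  rw [← hY] at hmin hnc
  haveI : Nontrivial V := by
    by_contra hV
    rw [not_nontrivial_iff_subsingleton] at hV
    obtain ⟨g, -, hne⟩ := hnc
    exact hne (Subsingleton.elim _ _)
  have hXY : X * Y = Y * X := by rw [hY, ← pow_succ', ← pow_succ]
  have hYp : Y ^ p = 1 := by rw [hY, ← pow_mul, ← pow_succ, h.ord]
  have hYQ : ∀ g ∈ Q, Y * g * Y⁻¹ ∈ Q := hY ▸ h.norm_pow _
  obtain ⟨hcen, -⟩ := min_structure hpq Q h.pgrp X Y hXY hYp h.norm hYQ hmin hnc
  -- central elements are scalar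
  have hsc : ∀ g ∈ Q, (∀ k ∈ Q, g * k = k * g) → ∃ c : K, (g : Module.End K V) = c • 1 := by
    intro g _ hgk
    exact hC _ (fun k hk => (coe_comm_iff g k).2 (hgk k hk))
  have hscY : ∀ g ∈ Q, (∃ c : K, (g : Module.End K V) = c • 1) → Y * g = g * Y := by
    rintro g _ ⟨c, hc⟩
    rw [← coe_comm_iff, hc]
    simp
  have hreg : ∀ g ∈ Q, X ^ p ^ n * g = g * X ^ p ^ n → ∃ c : K, (g : Module.End K V) = c • 1 := by
    intro g hg hcomm
    exact hsc g hg (hcen g hg (hY ▸ hcomm))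
  have hns : ∃ g ∈ Q, ¬ ∃ c : K, (g : Module.End K V) = c • 1 := by
    obtain ⟨g, hg, hne⟩ := hnc
    exact ⟨g, hg, fun hc => hne (hscY g hg hc)⟩
  obtain ⟨s', hs', hs'P⟩ := exists_isIdx (p := p) X (n + 1) h.ord
  have hsP : s ≤ p ^ (n + 1) := (hs.unique hs') ▸ hs'P
  obtain ⟨h1, h2⟩ := crit_units hpq Q h.pgrp hC X h.norm n h.ord hreg hns s hs
  have hnonab : ¬ ∀ a ∈ Q, ∀ b ∈ Q, a * b = b * a := by
    intro hab
    obtain ⟨g, hg, hne⟩ := hnc
    exact hne (hscY g hg (hsc g hg (hab g hg)))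
  rcases Nat.lt_or_ge s (p ^ (n + 1)) with hlt | hge
  · right
    have hseq : s = p ^ (n + 1) - 1 := by omega
    obtain ⟨m, hm1, hm⟩ := h2 hseq
    refine ⟨n + 1, m, by omega, le_rfl, hm1, hm, hnonab, ?_⟩
    rw [Nat.sub_self, pow_zero, one_mul, ← hseq]
  · left; omega

end crit

section main

universe u v

theorem Concl.step {p q n s₁ : ℕ} {A B : Prop} (h : Concl p q n s₁ A) (hAB : A → B) :
    Concl p q (n + 1) (p * s₁) B := by
  rcases h with h | ⟨n₀, m, h1, h2, h3, h4, h5, h6⟩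
  · left; rw [h, ← pow_succ']
  · refine Or.inr ⟨n₀, m, h1, by omega, h3, h4, hAB h5, ?_⟩
    have : n + 1 + 1 - n₀ = (n + 1 - n₀) + 1 := by omega
    rw [this, pow_succ', mul_assoc]
    exact Nat.mul_le_mul_left p h6

theorem main_aux {K : Type u} [Field K] [IsAlgClosed K] {p q : ℕ} [hp : Fact p.Prime] [hq : Fact q.Prime]
    [CharP K p] (hpq : p ≠ q) (d : ℕ) :
    ∀ (V : Type v) [AddCommGroup V] [Module K V] [FiniteDimensional K V], Module.finrank K V = d →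
      ∀ (Q : Subgroup (Module.End K V)ˣ) (X : (Module.End K V)ˣ) (n s : ℕ), Data p q Q X n →
        IsIdx ((X : Module.End K V) - 1) s → Concl p q n s (¬ ∀ a ∈ Q, ∀ b ∈ Q, a * b = b * a) := by
  induction d using Nat.strong_induction_on with
  | _ d ih =>
    intro V _ _ _ hd Q X n s h hs
    obtain ⟨Q₀, hle, h₀, hmin⟩ := exists_min h
    obtain ⟨s', hs', hs'P⟩ := exists_isIdx (p := p) X (n + 1) h.ord
    have hsP : s ≤ p ^ (n + 1) := (hs.unique hs') ▸ hs'P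
    suffices hh : Concl p q n s (¬ ∀ a ∈ Q₀, ∀ b ∈ Q₀, a * b = b * a) from
      hh.mono (fun hn hab => hn (fun a ha b hb => hab a (hle ha) b (hle hb))) le_rfl hsP
    haveI : Nontrivial V := by
      by_contra hV
      rw [not_nontrivial_iff_subsingleton] at hV
      obtain ⟨g, -, hne⟩ := h.nc
      exact hne (Subsingleton.elim _ _)
    rcases comm_trichotomy (p := p) Q₀ X (n + 1) h₀.norm h₀.norm' h₀.ord with
      hC | ⟨W, hW0, hW1, hQW, hXW⟩ | ⟨T, c, μ, hc, hTQ, hXT, hμ⟩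
    · exact crit hpq h₀ hmin hC hs
    · have hYW : X ^ p ^ n ∈ stab W := (stab W).pow_mem hXW _
      rcases nc_res_or_quot hpq Q₀ h₀.pgrp (X ^ p ^ n) (h₀.norm_pow _) h₀.nc W hQW hYW with hnc | hnc
      · have hD := data_map h₀ (stab W) (resHom W) hQW hXW hnc
        obtain ⟨s₁, hs₁, -⟩ := exists_isIdx (p := p) (resHom W ⟨X, hXW⟩) (n + 1) hD.ord
        have hlt : Module.finrank K W < d := hd ▸ Submodule.finrank_lt hW1
        exact (ih _ hlt W rfl _ _ n s₁ hD hs₁).mono (nonab_of_map _ _)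
          (isIdx_res_le W ⟨X, hXW⟩ s s₁ hs hs₁) hsP
      · have hD := data_map h₀ (stab W) (quotHom W) hQW hXW hnc
        obtain ⟨s₁, hs₁, -⟩ := exists_isIdx (p := p) (quotHom W ⟨X, hXW⟩) (n + 1) hD.ord
        have hlt : Module.finrank K (V ⧸ W) < d := by
          have h1 := Submodule.finrank_quotient_add_finrank W
          have h2 : 0 < Module.finrank K W := by
            rw [Module.finrank_pos_iff]
            exact Submodule.nontrivial_iff_ne_bot.2 hW0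
          omega
        exact (ih _ hlt (V ⧸ W) rfl _ _ n s₁ hD hs₁).mono (nonab_of_map _ _)
          (isIdx_quot_le W ⟨X, hXW⟩ s s₁ hs hs₁) hsP
    · obtain ⟨U, hU0, hU1, hQU, hXpU, hspan, hind⟩ := impr (p := p) Q₀ X T c μ hc hTQ hXT hμ
      haveI : Nontrivial U := Submodule.nontrivial_iff_ne_bot.2 hU0
      cases n with
      | zero =>
        left
        have hX1 : X ^ p = 1 := by simpa using h₀.ord
        have h1 : (⟨X ^ p, hXpU⟩ : stab U) = 1 := Subtype.ext hX1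
        have hs₁ : IsIdx (((resHom U ⟨X ^ p, hXpU⟩ : (Module.End K U)ˣ) : Module.End K U) - 1) 1 := by
          rw [h1, map_one]
          refine ⟨by simp, fun k hk => ?_⟩
          obtain rfl : k = 0 := by omega
          simp
        have := impr_idx (p := p) X U hXpU hspan hind s 1 hs hs₁
        simpa using this
      | succ n =>
        have hD' : Data p q Q₀ (X ^ p) n := by
          refine ⟨h₀.fin, h₀.pgrp, h₀.norm_pow p, ?_, ?_⟩
          · rw [← pow_mul, ← pow_succ']; exact h₀.ord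
          · rw [← pow_mul, ← pow_succ']; exact h₀.nc
        have hYU : (X ^ p) ^ p ^ n ∈ stab U := (stab U).pow_mem hXpU _
        have hXY : X * (X ^ p) ^ p ^ n = (X ^ p) ^ p ^ n * X := by
          rw [← pow_mul, ← pow_succ', ← pow_succ]
        have hnc := impr_nc (p := p) Q₀ X ((X ^ p) ^ p ^ n) hXY h₀.norm' U hQU hYU hspan hD'.nc
        have hD := data_map hD' (stab U) (resHom U) hQU hXpU hnc
        obtain ⟨s₁, hs₁, -⟩ := exists_isIdx (p := p) (resHom U ⟨X ^ p, hXpU⟩) (n + 1) hD.ord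
        have hlt : Module.finrank K U < d := hd ▸ Submodule.finrank_lt hU1
        have hss := impr_idx (p := p) X U hXpU hspan hind s s₁ hs hs₁
        rw [hss]
        exact (ih _ hlt U rfl _ _ n s₁ hD hs₁).step (nonab_of_map _ _)

/-- **Hall--Higman Theorem B, operator form.** -/
theorem main {K : Type u} [Field K] [IsAlgClosed K] {p q : ℕ} [Fact p.Prime] [Fact q.Prime]
    [CharP K p] (hpq : p ≠ q) {V : Type v} [AddCommGroup V] [Module K V] [FiniteDimensional K V]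
    (Q : Subgroup (Module.End K V)ˣ) (X : (Module.End K V)ˣ) (n s : ℕ) (h : Data p q Q X n)
    (hs : IsIdx ((X : Module.End K V) - 1) s) : Concl p q n s (¬ ∀ a ∈ Q, ∀ b ∈ Q, a * b = b * a) :=
  main_aux hpq _ V rfl Q X n s h hs

end main

end Cfsg.Agent.Lib.Helper12.HHB
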