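import Cfsg.Agent.Lib.Helper12.HHB.Defs

/-!
# Ladder HH3 (p-length at most the derived length of a Sylow p-subgroup): definitions
-/

set_option autoImplicit false

namespace Cfsg.Agent.Lib.Helper12.HHB

variable {K : Type*} [Field K] {V : Type*} [AddCommGroup V] [Module K V]

/-- The standing data of lemma LQ: a finite `q`-subgroup `Q` of `GL(V)` normalised by a finite `p`-subgroup `D`,
`c = [b, b']` a commutator of elements of `D` which is central in `D`, does not centralise `Q`, and satisfies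
`(d - 1)^2 (c - 1) = 0` for `d ∈ D` and `(c - 1)^2 = 0`. -/
structure DataQ (p q : ℕ) (Q D : Subgroup (Module.End K V)ˣ) (b b' c : (Module.End K V)ˣ) : Prop where
  finQ : Finite Q
  pgrpQ : IsPGroup q Q
  finD : Finite D
  pgrpD : IsPGroup p D
  norm : ∀ d ∈ D, ∀ g ∈ Q, d * g * d⁻¹ ∈ Q
  hb : b ∈ D
  hb' : b' ∈ D
  hc : c = b * b' * b⁻¹ * b'⁻¹
  cen : ∀ d ∈ D, c * d = d * c
  nc : ∃ g ∈ Q, c * g ≠ g * c
  h1 : ∀ d ∈ D, ((d : Module.End K V) - 1) * ((d : Module.End K V) - 1) * ((c : Module.End K V) - 1) = 0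
  h2 : ((c : Module.End K V) - 1) * ((c : Module.End K V) - 1) = 0

/-- the derived series of `P`, as subgroups of `X` -/
def ds {X : Type*} [Group X] (P : Subgroup X) : ℕ → Subgroup X
  | 0 => P
  | (k + 1) => ⁅ds P k, ds P k⁆

end Cfsg.Agent.Lib.Helper12.HHB
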