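import Mathlib

/-! # The wreath product property used in S3787 -/

set_option autoImplicit false

namespace Cfsg.Agent.Lib.Helper12.HHB

/-- `W` looks like `C_p ≀ C_p` (the property in the statement S3787). -/
def IsWr (p : ℕ) (W : Type*) [Group W] : Prop :=
  ∃ (B : Subgroup W) (t : W), B.Normal ∧ IsMulCommutative B ∧ (∀ b ∈ B, b ^ p = 1) ∧ Nat.card B = p ^ p ∧
    orderOf t = p ∧ t ∉ B ∧ Nat.card W = p ^ (p + 1) ∧
    Nat.card ↥(B ⊓ Subgroup.centralizer ({t} : Set W)) = p

end Cfsg.Agent.Lib.Helper12.HHB
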